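import Cfsg.Agent.Mult.Slices
import Cfsg.Agent.RGD.PLift

/-! Covers of a subgroup of index two, all generators of the big group inverting the kernel;
covers given by a central quotient. -/

set_option autoImplicit false

namespace Cfsg.Agent.Mult

open Subgroup Equiv Cfsg.Agent.CGT

universe u v

/-- Every second letter is shifted by `m` generators. -/
def altL (m : ℕ) : List ℕ → List ℕ
  | a :: b :: w => a :: (b + 2 * m) :: altL m w
  | _ => []

/-- A word of even length in involutions `g a`, in terms of the `g 0 * g a`. -/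
def rhoL : List ℕ → List ℕ
  | a :: b :: w => (if a = 0 then [] else [a - 1]) ++ ((if b = 0 then [] else [b - 2]) ++ rhoL w)
  | _ => []

/-- Words of even length in the first `m` generators. -/
def okL (m : ℕ) : List ℕ → Bool
  | a :: b :: w => decide (a % 2 = 0 ∧ a < 2 * m ∧ b % 2 = 0 ∧ b < 2 * m) && okL m w
  | [] => true
  | _ => false

variable {X : Type v} [Group X]

theorem okL_ind {m : ℕ} {P : List ℕ → Prop} (h0 : P [])
    (h : ∀ i < m, ∀ j < m, ∀ w, P w → P (2 * i :: 2 * j :: w)) : ∀ w, okL m w = true → P w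
  | [], _ => h0
  | [_], h1 => absurd h1 (by simp [okL])
  | a :: b :: w, h1 => by
    simp only [okL, Bool.and_eq_true, decide_eq_true_eq] at h1
    have := h (a / 2) (by omega) (b / 2) (by omega) w (okL_ind h0 h w h1.2)
    rwa [show 2 * (a / 2) = a by omega, show 2 * (b / 2) = b by omega] at this

theorem ev_altL {m : ℕ} {y Y : ℕ → X} (h : ∀ i < m, ∀ j < m, Y i * Y j = y i * y (j + m)) :
    ∀ w, okL m w = true → ev (ext y) (altL m w) = ev (ext Y) w :=
  okL_ind rfl fun i hi j hj w ih => by
    simp only [altL, ev_cons, ih, ← mul_add, ext_two_mul, ← mul_assoc, h i hi j hj]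

theorem ev_rhoL {m : ℕ} {g g' : ℕ → X} (h : ∀ i < m, g i * g i = 1)
    (h' : ∀ i, i + 1 < m → g' i = g 0 * g (i + 1)) :
    ∀ w, okL m w = true → ev (ext g') (rhoL w) = ev (ext g) w :=
  okL_ind rfl fun i hi j hj w ih => by
    have h0 := h 0 (by omega)
    have e1 : ev (ext g') (if 2 * i = 0 then [] else [2 * i - 1]) = g i * g 0 := by
      rcases i with _ | i
      · simp [h0]
      · rw [if_neg (by omega), show 2 * (i + 1) - 1 = 2 * i + 1 by omega, ev_singleton,
          ext_two_mul_add_one, h' i hi, mul_inv_rev, inv_eq_of_mul_eq_one_right h0,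
          inv_eq_of_mul_eq_one_right (h _ hi)]
    have e2 : ev (ext g') (if 2 * j = 0 then [] else [2 * j - 2]) = g 0 * g j := by
      rcases j with _ | j
      · simp [h0]
      · rw [if_neg (by omega), show 2 * (j + 1) - 2 = 2 * j by omega, ev_singleton, ext_two_mul,
          h' j hj]
    simp only [rhoL, ev_append, ev_cons, ih, e1, e2, ext_two_mul, mul_assoc]
    rw [← mul_assoc (g 0), h0, one_mul]

theorem nth_app {α : Type} (d : α) {l l' : List α} {m j : ℕ} (hl : l.length = m) (hj : j < m) :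
    nth d (l ++ l') j = nth d l j ∧ nth d (l ++ l') (j + m) = nth d l' j := by
  subst hl
  simp [nth_eq, List.getElem?_append_left hj, List.getElem?_append_right]

theorem holds_altL {m : ℕ} {ns : List Net} (hl : ns.length = m) {R : List (List ℕ)}
    (h : Holds (lp ns) R) (hR : allL R (okL m) = true) :
    Holds (lp (ns ++ ns)) (R.map (altL m)) := fun r hr => by
  obtain ⟨w, hw, rfl⟩ := List.mem_map.1 hr
  rw [← h w hw]
  exact ev_altL (fun i hi j hj => by
    simp only [netPerm, (nth_app _ hl hi).1, (nth_app _ hl hj).2]) w (allL_iff.1 hR w hw)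

/-- Negation of the labels. -/
def tau : Perm (ℕ × ZMod 3) := prodCongr (Equiv.refl _) (Equiv.neg _)

theorem tau_mono (π : Perm ℕ) (c : ℕ → ZMod 3) : tau * mono π c = mono π (fun x => -c x) * tau := by
  ext p
  · rfl
  · exact neg_add _ _

theorem tau_sq : tau * tau = 1 := by
  ext p
  · rfl
  · exact neg_neg _

theorem nth_map' {α β : Type} (f : α → β) (d : α) (l : List α) (j : ℕ) :
    nth (f d) (l.map f) j = f (nth d l j) := by
  simp [nth_eq]

/-- The triple cover of a subgroup `G` of index two in a presented group `E`. -/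
theorem stem_tw {G : Type u} [Group G] [Finite G] {E : Type*} [Group E] (ι : G →* E)
    (hι : Function.Injective ι) {γ : ℕ → G} {δ : ℕ → E} {m : ℕ}
    (h1 : ∀ j, j + 1 < m → ι (γ j) = δ 0 * δ (j + 1)) (h2 : ∀ j, m ≤ j + 1 → γ j = 1)
    {L : List ℕ} (gen : gp γ L = ⊤) {R : List (List ℕ)} (hR : Holds (ext δ) R)
    (hL : ∀ {H : Type} [Group H] {h : ℕ → H}, (∀ j, m ≤ j → h j = 1) → Holds (ext h) R →
      ∃ f : E →* H, ∀ j, f (δ j) = h j) (ok : allL R (okL m) = true)
    {ns : List Net} (hl : ns.length = m) {C : List (ℕ × ℕ)} (hC : C.length = m) {U : ℕ}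
    {as : List ℕ} (P : Proj (yM 3 (ns ++ ns) (C ++ C.map Prod.swap)) (zM 3 U) 3 (R.map (altL m)) as)
    (hsq : ∀ j < m, nth [] R j = [2 * j, 2 * j] ∧ nth 0 as j = 0 ∧ j < R.length) (k : ℕ) (u : List ℕ)
    (h : (pickB L k (R.map rhoL) u && Nat.beq (Nat.mod (sumP 3 as u) 3) 1) = true) :
    Holds (ext γ) (R.map rhoL) ∧ Stem G (Multiplicative (ZMod 3)) := by
  set y := yM 3 (ns ++ ns) (C ++ C.map Prod.swap)
  set z := zM 3 U
  have okn : ∀ j, okL m (nth [] R j) = true := fun j => by
    rw [nth_eq]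
    rcases Nat.lt_or_ge j R.length with hj | hj
    · rw [List.getD_eq_getElem _ _ hj]; exact allL_iff.1 ok _ (List.getElem_mem hj)
    · rw [List.getD_eq_default _ _ hj]; rfl
  have hγ : Holds (ext γ) (R.map rhoL) := fun r hr => by
    obtain ⟨w, hw, rfl⟩ := List.mem_map.1 hr
    apply hι
    rw [map_ev, map_one, ← hR w hw]
    simp only [map_ext]
    exact ev_rhoL (fun i hi => by
      simpa [(hsq i hi).1, ext_two_mul] using Enum.holds_nth hR i) h1 w (allL_iff.1 ok w hw)
  let Y : ℕ → Perm (ℕ × ZMod 3) := fun j => if j < m then y j * tau else 1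
  have hτ : ∀ j < m, tau * y j = y (j + m) * tau := fun j hj => by
    simp only [y, yM, tau_mono, netPerm, (nth_app _ hl hj).1, (nth_app _ hl hj).2,
      (nth_app _ hC hj).1, (nth_app _ hC hj).2]
    congr 2
    funext x
    rw [show nth (0, 0) (C.map Prod.swap) j = _ from nth_map' Prod.swap (0, 0) C j]
    simp only [val, Prod.fst_swap, Prod.snd_swap]
    generalize bt (ZMod 3) _ = a, bt (ZMod 3) _ = b
    revert a b; decide
  have hY : ∀ j, ev (ext Y) (nth [] R j) = z ^ nth 0 as j := fun j => by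
    rw [← P.rel, show nth [] (R.map (altL m)) j = _ from nth_map' (altL m) [] R j]
    refine (ev_altL (fun i hi j hj => ?_) _ (okn j)).symm
    simp only [Y, if_pos hi, if_pos hj]
    rw [mul_assoc, ← mul_assoc tau, hτ j hj, mul_assoc, tau_sq, mul_one]
  have hz : ∀ j < m, Y j * z = z⁻¹ * Y j := fun j hj => by
    have e : tau * z = z⁻¹ * tau := (tau_mono _ _).trans (by rw [show z = mono _ _ from rfl, mono_inv]; rfl)
    simp only [Y, if_pos hj]
    rw [mul_assoc, e, ← mul_assoc, ← mul_assoc, ← (P.comm j).inv_left.eq]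
  let y' : ℕ → Perm (ℕ × ZMod 3) := fun j => if j + 1 < m then Y 0 * Y (j + 1) else 1
  have P' : Proj y' z 3 (R.map rhoL) as := ⟨P.ord, fun j => by
    simp only [y']
    split_ifs with hj
    · rw [commute_iff_eq, mul_assoc, hz _ hj, ← mul_assoc, ← mul_assoc,
        eq_mul_inv_iff_mul_eq.2 (show z * Y 0 * z = Y 0 by rw [mul_assoc, hz 0 (by omega)]; simp)]
    · exact Commute.one_right _, fun j => by
    rw [← hY, show nth [] (R.map rhoL) j = _ from nth_map' rhoL [] R j]
    exact ev_rhoL (fun i hi => by simpa [hsq i hi, ext_two_mul] using hY i)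
      (fun i hi => if_pos hi) _ (okn j)⟩
  let N := normalizer (zpowers z : Set (Perm (ℕ × ZMod 3)))
  have hN : ∀ j, Y j ∈ N := fun j => by
    by_cases hj : j < m
    · have e : (zpowers z).map (MulAut.conj (Y j)).toMonoidHom = zpowers z := by
        rw [MonoidHom.map_zpowers, ← zpowers_inv (g := z)]
        congr 1
        simp [hz j hj]
      refine mem_normalizer_iff.2 fun x => ?_
      conv_rhs => rw [← e]
      exact (mem_map_iff_mem (MulAut.conj (Y j)).injective).symm
    · simp only [Y, if_neg hj]; exact one_mem _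
  let π := QuotientGroup.mk' ((zpowers z).subgroupOf N)
  have hπ : ∀ (g : ℕ → N) (w : List ℕ), ev (ext fun j => π (g j)) w = 1 ↔
      ev (ext fun j => (g j).1) w ∈ zpowers z := fun g w => by
    have e1 := map_ev (ext g) π w
    have e2 := map_ev (ext g) N.subtype w
    simp only [map_ext] at e1 e2
    rw [← e1, ← show _ = ev (ext fun j => (g j).1) w from e2]
    exact QuotientGroup.eq_one_iff _
  obtain ⟨f, hf⟩ := hL (h := fun j => π ⟨Y j, hN j⟩) (fun j hj => by
    rw [show (⟨Y j, hN j⟩ : N) = 1 from Subtype.ext (if_neg (by omega)), map_one]) fun r hr => by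
      obtain ⟨j, hj, rfl⟩ := List.getElem_of_mem hr
      have := hY j
      rw [nth_eq, List.getD_eq_getElem _ _ hj] at this
      exact (hπ _ _).2 (this ▸ pow_mem (mem_zpowers z) _)
  simp only [pickB, litL_eq, Bool.and_eq_true, Nat.beq_eq, mod_eq'] at h
  refine ⟨hγ, stem_cyc gen y' z P'.ord P'.comm (fun w _ hw => ?_) h.1.1 h.1.2 (ev_pick_one hγ u)
    (by rw [P'.ev_pick, h.2, pow_one])⟩
  let g : ℕ → N := fun j => if j + 1 < m then ⟨Y 0, hN 0⟩ * ⟨Y (j + 1), hN _⟩ else 1
  have e : y' = fun j => (g j).1 := funext fun j => by simp only [y', g]; split_ifs <;> rfl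
  rw [e, ← hπ]
  have := congrArg (f.comp ι) hw
  rw [map_ev, map_one] at this
  simp only [map_ext] at this
  rw [← this]
  congr 2
  funext j
  simp only [g, MonoidHom.comp_apply]
  split_ifs with hj
  · rw [h1 j hj, map_mul, map_mul, hf, hf]
  · rw [h2 j (by omega), map_one, map_one, map_one]

/-- The multiplier of prime order, from a central extension with a non-trivial central commutator. -/
theorem cyc_of_central {G : Type u} [Group G] [Finite G] (hperf : commutator G = ⊤) {p : ℕ}
    [Fact p.Prime] {E : Type u} [Group E] (π : E →* G) (hπ : Function.Surjective π)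
    (hc : π.ker ≤ center E) {x : E} (h1 : x ∈ commutator E) (h2 : π x = 1) (h3 : x ≠ 1) {N : ℕ}
    (hN : Nat.card G = N) (fs : List (ℕ × ℕ)) (hfs : (fs.map fun f => f.1 ^ f.2).prod = N)
    (hpr : ∀ f ∈ fs, f.1.Prime)
    (hb : ∀ f ∈ fs, ¬ f.1 ^ 2 ∣ N ∨ ∃ e, f.1 ^ e ∣ p ∧ PBound G f.1 e) :
    HasCyclicSchurMultiplier G p := by
  have := RGD.finite_commutator_of_central hc
  have e : (commutator E).map π = ⊤ := by
    rw [_root_.commutator_def, map_commutator, ← MonoidHom.range_eq_map, MonoidHom.range_eq_top.2 hπ,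
      ← _root_.commutator_def, hperf]
  let σ := π.comp (commutator E).subtype
  have hσ : IsStemExtension σ := ⟨fun g => by
      obtain ⟨y, hy, rfl⟩ := e ▸ mem_top g
      exact ⟨⟨y, hy⟩, rfl⟩,
    fun y hy => mem_center_iff.2 fun w => Subtype.ext (mem_center_iff.1 (hc hy) w), fun y _ => by
      have := Cover.commutator_le_of_map_eq_top hc _ (fun x => e ▸ mem_top (π x)) y.2
      rw [← map_subtype_commutator] at this
      obtain ⟨w, hw, h⟩ := this
      exact Subtype.ext h ▸ hw⟩
  have hd := card_ker_dvd (pbounds_of_list hN fs hfs hpr hb) _ σ hσ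
  refine cyc_of_bounds hperf (Stem.of_any hσ (mulEquivOfPrimeCardEq (p := p) ?_ (by simp))) hN fs hfs
    hpr hb
  refine ((Nat.dvd_prime Fact.out).1 hd).resolve_left fun h => h3 ?_
  have hx : (⟨x, h1⟩ : commutator E) ∈ σ.ker := h2
  rw [card_eq_one.1 h, mem_bot] at hx
  exact congrArg Subtype.val hx

end Cfsg.Agent.Mult
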